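import Cfsg.Agent.H903.Ore.F4Conj
import Cfsg.Agent.H374.Ore.Nf
import Cfsg.Agent.H374.Ore.Sl3
import Cfsg.Agent.H934.MF.Diag
import Cfsg.Agent.H777.Ore.Base

/-!
# `F₄(3)`: every element is a commutator (S2443, helper903)

`J = {0, 2, 3}`: `v u = φ₃(X Y) φ₂(C C')` with `X`, `Y` of irreducible characteristic polynomial, `C³ = C'³ = -1`;
the cube of `c = φ₃(X) φ₂(C)` is `h(-1) φ₃(X³)`, without fixed points on the unipotent radicals.

* `exists_dg3` : diagonalisation of an element of `SL₃(K)` with irreducible characteristic polynomial;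
* `nf_blk` : `φ₃(X) φ₂(C)`, `C³ = -1`, has no fixed points on `V_J`, `V_J⁻` (`|K| = 3`);
* `allC_F4_three` : the row.
-/

set_option autoImplicit false
set_option linter.unusedSectionVars false

namespace Cfsg.Agent.H903.Ore.F4Three

open CoxeterSystem Cfsg.Agent.ChevalleyStructure.CoxeterGeom Cfsg.Agent.Tits.Roots Cfsg.Agent.Tits.Core
  Cfsg.Agent.Nodes.Reps Cfsg.Agent.Nodes.BNOf Cfsg.Agent.Nodes.RGDLib Cfsg.Agent.Nodes.Bruhat
  Cfsg.Agent.Nodes.OppDec Cfsg.Agent.Nodes.LeviDec Cfsg.Agent.Nodes.KindChev Cfsg.Agent.Nodes.ChevCls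
  Cfsg.Agent.OddHalf.NI.ModelChev Cfsg.Agent.Nodes.StabComb
  Cfsg.Agent.H162.GaussDec Cfsg.Agent.H162.GaussLevi Cfsg.Agent.H162.GaussSL
  Cfsg.Agent.H162.GaussMain Cfsg.Agent.H162.GaussExc Cfsg.Agent.H162.GaussExcMain
open Cfsg.Lie Cfsg.Agent.ChevalleyStructure Cfsg.Agent.ChevalleyStructure.Elts
  Cfsg.Agent.ChevalleyStructure.RootVec Cfsg.Agent.ChevalleyStructure.NPerm
  Cfsg.Agent.ChevalleyStructure.CoxeterGeomTypes Cfsg.Agent.Nodes.RGDChev Cfsg.Agent.KFacts.RgdChevCoord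
open Cfsg.Agent.FixBN.FieldRGD (uu vv dd ww)
open Cfsg.Agent.H928.Ore.Frame Cfsg.Agent.H928.Ore.Block Cfsg.Agent.H374.Ore.Nf Cfsg.Agent.H777.Ore
open Cfsg.Agent.H903.Ore.F4Conj
open scoped MatrixGroups
open Polynomial (IsRoot)

universe u

/-! ### Diagonalisation -/

/-- an irreducible polynomial of degree three has no root -/
theorem not_root {K L : Type*} [Field K] [Field L] [Algebra K L] {f : Polynomial K} (hf : Irreducible f)
    (hd : f.natDegree = 3) {z : L} (hz : Polynomial.aeval z f = 0) : z ∉ Set.range (algebraMap K L) := by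
  rintro ⟨x, rfl⟩
  rw [Polynomial.aeval_algebraMap_apply_eq_algebraMap_eval, map_eq_zero] at hz
  have h1 := Polynomial.degree_eq_one_of_irreducible_of_root hf hz
  rw [Polynomial.degree_eq_natDegree hf.ne_zero, hd] at h1
  exact absurd h1 (by norm_num)

/-- **Diagonalisation.** -/
theorem exists_dg3 {K : Type u} [Field K] [Finite K] (X : SL(3, K)) (hX : Irreducible X.1.charpoly) :
    ∃ (L : Type u) (_ : Field L) (_ : Finite L) (ι : K →+* L) (P : SL(3, L)) (a b : Lˣ),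
      Matrix.SpecialLinearGroup.map ι X = P * dg3 a b * P⁻¹ ∧ (a : L) ∉ Set.range ι ∧
      ((a⁻¹ * b : Lˣ) : L) ∉ Set.range ι ∧ ((b⁻¹ : Lˣ) : L) ∉ Set.range ι := by
  obtain ⟨f, hf⟩ : ∃ f, f = X.1.charpoly := ⟨_, rfl⟩
  rw [← hf] at hX
  have hm : f.Monic := hf ▸ Matrix.charpoly_monic _
  have hd : f.natDegree = 3 := by rw [hf, Matrix.charpoly_natDegree_eq_dim, Fintype.card_fin]
  have : Fintype K := Fintype.ofFinite K
  have : Fact (Irreducible f) := ⟨hX⟩
  have : Module.Finite K (AdjoinRoot f) := (AdjoinRoot.powerBasis hX.ne_zero).finite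
  have : Finite (AdjoinRoot f) := Module.finite_of_finite K
  have hz0 : Polynomial.aeval (AdjoinRoot.root f) f = 0 := by
    rw [AdjoinRoot.aeval_eq, AdjoinRoot.mk_self]
  have hmin : minpoly K (AdjoinRoot.root f) = f :=
    ((minpoly.eq_of_irreducible_of_monic hX hz0 hm)).symm
  obtain ⟨g, hg⟩ := Cfsg.Agent.H934.MF.diag_irr (K := K) (L := AdjoinRoot f) (z := AdjoinRoot.root f) (n := 3)
    (by rw [hmin, hd]) X.1 (by rw [hmin, hf])
  obtain ⟨lam, hlam⟩ : ∃ lam : Fin 3 → AdjoinRoot f,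
    lam = fun a : Fin 3 => AdjoinRoot.root f ^ (Fintype.card K ^ (a : ℕ)) := ⟨_, rfl⟩
  rw [← hlam] at hg
  have hroot : ∀ a, lam a ∉ Set.range (algebraMap K (AdjoinRoot f)) := by
    intro a
    rw [hlam]
    exact not_root hX hd (Cfsg.Agent.H934.MF.root_pow hz0 _)
  have hdet : lam 0 * lam 1 * lam 2 = 1 := by
    have h1 := congrArg Matrix.det hg
    rw [Matrix.det_mul, Matrix.det_mul, Matrix.det_diagonal, Fin.prod_univ_three] at h1
    have h2 : (X.1.map (algebraMap K (AdjoinRoot f))).det = 1 := by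
      have := RingHom.map_det (algebraMap K (AdjoinRoot f)) X.1
      rw [X.2, map_one] at this
      exact this.symm
    have h3 : Matrix.det (g : Matrix (Fin 3) (Fin 3) (AdjoinRoot f)) *
        Matrix.det ((g⁻¹ : GL (Fin 3) (AdjoinRoot f)) : Matrix (Fin 3) (Fin 3) (AdjoinRoot f)) = 1 := by
      rw [← Matrix.det_mul, ← Units.val_mul, mul_inv_cancel, Units.val_one, Matrix.det_one]
    rw [h2] at h1
    rw [h1]
    linear_combination (lam 0 * lam 1 * lam 2) * (-h3)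
  have hne : ∀ a, lam a ≠ 0 := by
    intro a h
    exact hroot a ⟨0, by rw [h, map_zero]⟩
  obtain ⟨c, hc⟩ : ∃ c : (AdjoinRoot f)ˣ, (c : AdjoinRoot f) =
      Matrix.det ((g⁻¹ : GL (Fin 3) (AdjoinRoot f)) : Matrix (Fin 3) (Fin 3) (AdjoinRoot f)) :=
    ⟨Matrix.GeneralLinearGroup.det g⁻¹, rfl⟩
  have hgc : Matrix.det (g : Matrix (Fin 3) (Fin 3) (AdjoinRoot f)) * c = 1 := by
    rw [hc, ← Matrix.det_mul, ← Units.val_mul, mul_inv_cancel, Units.val_one, Matrix.det_one]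
  obtain ⟨P, hP⟩ : ∃ P : SL(3, AdjoinRoot f), P.1 = g.1 * Matrix.diagonal ![(c : AdjoinRoot f), 1, 1] := by
    refine ⟨⟨_, ?_⟩, rfl⟩
    rw [Matrix.det_mul, Matrix.det_diagonal, Fin.prod_univ_three]
    change Matrix.det g.1 * ((c : AdjoinRoot f) * 1 * 1) = 1
    rw [mul_one, mul_one]
    exact hgc
  refine ⟨AdjoinRoot f, inferInstance, inferInstance, algebraMap K (AdjoinRoot f), P, Units.mk0 (lam 0) (hne 0),
    (Units.mk0 (lam 2) (hne 2))⁻¹, ?_, hroot 0, ?_, ?_⟩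
  · rw [eq_mul_inv_iff_mul_eq]
    apply Subtype.ext
    change (X.1.map (algebraMap K (AdjoinRoot f))) * P.1 = P.1 * Matrix.diagonal _
    rw [hP, hg]
    have e1 : (![((Units.mk0 (lam 0) (hne 0) : (AdjoinRoot f)ˣ) : AdjoinRoot f),
        (((Units.mk0 (lam 0) (hne 0))⁻¹ * (Units.mk0 (lam 2) (hne 2))⁻¹ : (AdjoinRoot f)ˣ) : AdjoinRoot f),
        ((((Units.mk0 (lam 2) (hne 2))⁻¹)⁻¹ : (AdjoinRoot f)ˣ) : AdjoinRoot f)] : Fin 3 → AdjoinRoot f) = lam := by
      funext i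
      fin_cases i
      · rfl
      · change (((Units.mk0 (lam 0) (hne 0))⁻¹ * (Units.mk0 (lam 2) (hne 2))⁻¹ : (AdjoinRoot f)ˣ) : AdjoinRoot f) = lam 1
        rw [← mul_inv, Units.val_inv_eq_inv_val, Units.val_mul, Units.val_mk0, Units.val_mk0]
        have h0 := hne 0
        have h2 := hne 2
        field_simp
        linear_combination -hdet
      · change ((((Units.mk0 (lam 2) (hne 2))⁻¹)⁻¹ : (AdjoinRoot f)ˣ) : AdjoinRoot f) = lam 2
        rw [inv_inv]
        rfl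
    rw [e1]
    have e2 : ((g⁻¹ : GL (Fin 3) (AdjoinRoot f)) : Matrix (Fin 3) (Fin 3) (AdjoinRoot f)) * g.1 = 1 := by
      rw [← Units.val_mul, inv_mul_cancel, Units.val_one]
    calc g.1 * Matrix.diagonal lam * ((g⁻¹ : GL (Fin 3) (AdjoinRoot f)) : Matrix (Fin 3) (Fin 3) (AdjoinRoot f)) *
          (g.1 * Matrix.diagonal ![(c : AdjoinRoot f), 1, 1])
        = g.1 * Matrix.diagonal lam * (((g⁻¹ : GL (Fin 3) (AdjoinRoot f)) : Matrix (Fin 3) (Fin 3) (AdjoinRoot f)) *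
          g.1) * Matrix.diagonal ![(c : AdjoinRoot f), 1, 1] := by noncomm_ring
      _ = g.1 * (Matrix.diagonal lam * Matrix.diagonal ![(c : AdjoinRoot f), 1, 1]) := by
        rw [e2, Matrix.mul_one, Matrix.mul_assoc]
      _ = g.1 * (Matrix.diagonal ![(c : AdjoinRoot f), 1, 1] * Matrix.diagonal lam) := by
        rw [Matrix.diagonal_mul_diagonal, Matrix.diagonal_mul_diagonal]
        congr 2
        funext i
        exact mul_comm _ _
      _ = _ := by rw [Matrix.mul_assoc]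
  · have e : (((Units.mk0 (lam 0) (hne 0))⁻¹ * (Units.mk0 (lam 2) (hne 2))⁻¹ : (AdjoinRoot f)ˣ) : AdjoinRoot f) = lam 1 := by
      rw [← mul_inv, Units.val_inv_eq_inv_val, Units.val_mul, Units.val_mk0, Units.val_mk0]
      have h0 := hne 0
      have h2 := hne 2
      field_simp
      linear_combination -hdet
    rw [e]
    exact hroot 1
  · rw [inv_inv]
    exact hroot 2

/-! ### Fixed points -/

/-- the table -/
theorem htab : ∀ s < chevF4.nroots, vec chevF4 4 s 1 ≠ 0 →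
    (chevF4.cartan 3 s = 0 ∧ chevF4.cartan 2 s = 0 ∧ chevF4.cartan 0 s % 2 ≠ 0) ∨
      Wt (chevF4.cartan 3 s) (chevF4.cartan 2 s) := by decide +kernel

theorem hsig : ∀ a b, a ≠ b → chevF4.cartan 0 (r3 a b) = 0 := by decide +kernel

theorem hsim : r3 0 1 = chevF4.simple 3 ∧ r3 1 2 = chevF4.simple 2 ∧ r2 0 1 = chevF4.simple 0 := by decide +kernel

section

variable {K : Type u} [Field K]

theorem prod_single (u : Kˣ) (s : ℕ) :
    ∏ k : Fin 4, (((Pi.mulSingle 0 u : Fin 4 → Kˣ) k : Kˣ) : K) ^ chevF4.cartan k s = (u : K) ^ chevF4.cartan 0 s := by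
  rw [Finset.prod_eq_single 0]
  · rw [Pi.mulSingle_eq_same]
    rfl
  · intro k _ hk
    rw [Pi.mulSingle_eq_of_ne hk, Units.val_one, _root_.one_zpow]
  · intro hi; exact absurd (Finset.mem_univ _) hi

variable {φ₃ : SL(3, K) →* ↥(chevF4.group K)} {φ₂ : SL(2, K) →* ↥(chevF4.group K)} (B : Blk K φ₃ φ₂)

include B

/-- `φ₂(-1)` is an element of the torus -/
theorem phi_neg : φ₂ (-1) = th hF (Pi.mulSingle 0 (-1)) := by
  have h := phi_hel hF (K := K) (ε := 1) (by norm_num) rt2.1 rt2.2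
    (fun a b hab c => by rw [B.h₂, Int.cast_one]) (show (0 : Fin 2) ≠ 1 by decide) (i := 0) hsim.2.2 (-1)
  rw [← h]
  congr 1
  apply Subtype.ext
  have h01 : ∀ c : K, ((Matrix.SpecialLinearGroup.transvection (show (0 : Fin 2) ≠ 1 by decide) c : SL(2, K)) :
      Matrix (Fin 2) (Fin 2) K) = !![1, c; 0, 1] := by
    intro c
    ext i j
    fin_cases i <;> fin_cases j <;> simp [Matrix.SpecialLinearGroup.transvection, Matrix.transvection]
  have h10 : ∀ c : K, ((Matrix.SpecialLinearGroup.transvection (show (0 : Fin 2) ≠ 1 by decide).symm c : SL(2, K)) :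
      Matrix (Fin 2) (Fin 2) K) = !![1, 0; c, 1] := by
    intro c
    ext i j
    fin_cases i <;> fin_cases j <;> simp [Matrix.SpecialLinearGroup.transvection, Matrix.transvection]
  have e : ((hel (show (0 : Fin 2) ≠ 1 by decide) (-1 : Kˣ) : SL(2, K)) : Matrix (Fin 2) (Fin 2) K) =
      (!![1, (((-1 : Kˣ)) : K); 0, 1] * !![1, 0; -(((-1 : Kˣ)⁻¹ : Kˣ) : K), 1] * !![1, (((-1 : Kˣ)) : K); 0, 1]) *
      (!![1, (-1 : K); 0, 1] * !![1, 0; (1 : K), 1] * !![1, (-1 : K); 0, 1]) := by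
    rw [← h01, ← h01, ← h10, ← h10]
    rfl
  rw [e, Matrix.mul_fin_two, Matrix.mul_fin_two, Matrix.mul_fin_two, Matrix.mul_fin_two, Matrix.mul_fin_two]
  change -(1 : Matrix (Fin 2) (Fin 2) K) = _
  rw [Matrix.one_fin_two]
  simp

/-- **No fixed points.** -/
theorem nf_blk [Finite K] (hK : Nat.card K = 3) {X : SL(3, K)} (hX : Irreducible X.1.charpoly) {C : SL(2, K)}
    (hC : C ^ 3 = -1) :
    NF (VJ CoxeterMatrix.F₄.toCoxeterSystem hF.isCartan (XX chevF4 4 K) {k | k ≠ 1}) (φ₃ X * φ₂ C) ∧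
      NF (VNJ CoxeterMatrix.F₄.toCoxeterSystem hF.isCartan (XX chevF4 4 K) {k | k ≠ 1}) (φ₃ X * φ₂ C) := by
  have : Fintype K := Fintype.ofFinite K
  have h3 : Fintype.card K = 3 := by rw [← Nat.card_eq_fintype_card, hK]
  have hX3 : Irreducible (X ^ 3).1.charpoly := by
    have : (X ^ 3).1 = X.1 ^ Fintype.card K := by rw [h3]; rfl
    rw [this, FiniteField.Matrix.charpoly_pow_card]
    exact hX
  have h10 : ((-1 : Kˣ) : K) ≠ 1 := by
    intro h
    have h2 : (2 : K) = 0 := by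
      rw [Units.val_neg, Units.val_one] at h
      linear_combination -h
    obtain ⟨p, hp⟩ := CharP.exists K
    have hpp : p.Prime := (CharP.char_is_prime_or_zero K p).resolve_right (CharP.char_ne_zero_of_finite K p)
    have : Fact p.Prime := ⟨hpp⟩
    obtain ⟨n, -, hn⟩ := FiniteField.card K p
    rw [h3] at hn
    have h4 : p ∣ 3 := by rw [hn]; exact dvd_pow_self p n.pos.ne'
    have h5 := (Nat.prime_dvd_prime_iff_eq hpp Nat.prime_three).1 h4
    have h6 : p ∣ 2 := (CharP.cast_eq_zero_iff K p 2).1 (by exact_mod_cast h2)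
    have h7 := (Nat.prime_dvd_prime_iff_eq hpp Nat.prime_two).1 h6
    omega
  obtain ⟨L, _, _, ι, P, a, b, hP, g1, g2, g3⟩ := exists_dg3 (X ^ 3) hX3
  obtain ⟨φ₃', φ₂', B'⟩ := exists_blk L
  have key := nf_dg hF (K := K) (K' := L) ι (ε := 1) (by norm_num) rt3.1 rt3.2.2.2
    (φ := φ₃) (fun a b hab c => by rw [B.h₃, Int.cast_one]) (φ' := φ₃') (fun a b hab c => by rw [B'.h₃, Int.cast_one])
    (i := 3) (j := 2) hsim.1 hsim.2.1 (J := {k | k ≠ 1}) (fun a b hab k hk => by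
      have : k = 1 := by simpa using hk
      subst this
      exact rJ.1 a b hab) (σ := Pi.mulSingle 0 (-1)) (fun a b hab => by
      rw [prod_single, hsig a b hab, zpow_zero]) (fun s hs hk => by
      obtain ⟨k, hk, hk'⟩ := hk
      have : k = 1 := by simpa using hk
      subst this
      rcases htab s hs hk' with ⟨e1, e2, e3⟩ | h
      · refine Or.inl ⟨e1, e2, ?_⟩
        rw [prod_single]
        obtain ⟨m, hm⟩ : Odd (chevF4.cartan 0 s) := Int.not_even_iff_odd.1 (fun he => e3 (Int.even_iff.1 he))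
        rw [hm, zpow_add₀ (Units.ne_zero _), zpow_mul, zpow_one]
        have e4 : ((-1 : Kˣ) : K) ^ (2 : ℤ) = 1 := by
          rw [Units.val_neg, Units.val_one]
          norm_num
        rw [e4, _root_.one_zpow, one_mul]
        exact h10
      · exact Or.inr h) hP g1 g2 g3
  have hcube : (φ₃ X * φ₂ C) ^ 3 = th hF (Pi.mulSingle 0 (-1)) * φ₃ (X ^ 3) := by
    have h1 : Commute (φ₃ X) (φ₂ C) := B.comm X C
    rw [h1.mul_pow, ← map_pow, ← map_pow, hC, B.comm, phi_neg B]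
  rw [← hcube] at key
  have hpow : ∀ {V : Subgroup ↥(chevF4.group K)} {c : ↥(chevF4.group K)}, NF V (c ^ 3) → NF V c := by
    intro V c h x hx e
    refine h x hx ?_
    have e1 : c * x = x * c := mul_inv_eq_iff_eq_mul.1 e
    have e2 : Commute c x := e1
    have e3 : c ^ 3 * x = x * c ^ 3 := (e2.pow_left 3).eq
    rw [e3, mul_inv_cancel_right]
  exact ⟨hpow key.1, hpow key.2⟩

end

/-! ### The row -/

section

variable {K : Type u} [Field K]

theorem not_core [Finite K] {p : ℕ} [Fact p.Prime] [CharP K p] {g : ↥(chevF4.group K)} (hg : g ≠ 1) :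
    g ∉ (RGD.B CoxeterMatrix.F₄.toCoxeterSystem hF.isCartan (TT chevF4 K) (XX chevF4 4 K)).normalCore := by
  have := finite_W hF CoxeterMatrix.F₄.toCoxeterSystem
  have R := rgd (K := K) hF CoxeterMatrix.F₄.toCoxeterSystem p
  have hsim := Cfsg.Agent.S1054.result (F := K) chevF4 (by simp)
  have := hsim.1
  intro h1
  have h2 := core_le_ker R (MonoidHom.id ↥(chevF4.group K)) Function.surjective_id (fun x hx => by
    rw [MonoidHom.mem_ker] at hx
    change x = 1 at hx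
    rw [hx]
    exact one_mem _) h1
  exact hg h2

theorem three_zero [Finite K] (hK : Nat.card K = 3) : (3 : K) = 0 := by
  have : Fintype K := Fintype.ofFinite K
  have h3 : Fintype.card K = 3 := by rw [← Nat.card_eq_fintype_card, hK]
  have := FiniteField.cast_card_eq_zero K
  rw [h3] at this
  exact_mod_cast this

/-- the decomposition in the Levi subgroup -/
theorem key [Finite K] (hK : Nat.card K = 3) :
    ∀ v ∈ UNJ CoxeterMatrix.F₄.toCoxeterSystem hF.isCartan (XX chevF4 4 K) {k | k ≠ 1},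
    ∀ u ∈ UJ CoxeterMatrix.F₄.toCoxeterSystem hF.isCartan (XX chevF4 4 K) {k | k ≠ 1},
    ∃ c₁ c₂, v * u = c₁ * c₂ ∧
      LP CoxeterMatrix.F₄.toCoxeterSystem hF.isCartan (TT chevF4 K) (XX chevF4 4 K) {k | k ≠ 1} c₁ c₂ ∧
      (∃ y, c₂ = y * c₁⁻¹ * y⁻¹) := by
  obtain ⟨φ₃, φ₂, B⟩ := exists_blk K
  intro v hv u hu
  obtain ⟨A₁, hA₁, C₁, hC₁, rfl⟩ := B.mem_UNJ hv
  obtain ⟨A₂, hA₂, C₂, hC₂, rfl⟩ := B.mem_UJ hu
  obtain ⟨X, Y, hXY, hX, hY, hc⟩ := Cfsg.Agent.H374.Ore.Sl3.m3 (Or.inr hK) hA₁ hA₂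
  obtain ⟨C, C', hCC, n1, n2, ht, c1, c2⟩ := sl2_three (three_zero hK) hC₁ hC₂
  refine ⟨φ₃ X * φ₂ C, φ₃ Y * φ₂ C', ?_, ⟨mul_mem (B.mem₃ X) (B.mem₂ C), mul_mem (B.mem₃ Y) (B.mem₂ C'),
    (nf_blk B hK hX c1).2, (nf_blk B hK hY c2).1⟩, B.conj hX hY hc n1 n2 ht⟩
  calc φ₃ A₁ * φ₂ C₁ * (φ₃ A₂ * φ₂ C₂) = φ₃ A₁ * (φ₂ C₁ * φ₃ A₂) * φ₂ C₂ := by group
    _ = φ₃ A₁ * φ₃ A₂ * (φ₂ C₁ * φ₂ C₂) := by rw [← B.comm]; group
    _ = φ₃ X * φ₃ Y * (φ₂ C * φ₂ C') := by rw [← map_mul, ← map_mul, hXY, hCC, map_mul, map_mul]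
    _ = φ₃ X * (φ₃ Y * φ₂ C) * φ₂ C' := by group
    _ = φ₃ X * φ₂ C * (φ₃ Y * φ₂ C') := by rw [B.comm]; group

/-- **Ore's theorem for `F₄(3)`.** -/
theorem allC_F4_three [Finite K] (hK : Nat.card K = 3) : AllC ↥(chevF4.group K) := by
  obtain ⟨p, hpc⟩ := CharP.exists K
  have : Fact p.Prime := ⟨(CharP.char_is_prime_or_zero K p).resolve_right (CharP.char_ne_zero_of_finite K p)⟩
  have := finite_W hF CoxeterMatrix.F₄.toCoxeterSystem
  intro g
  by_cases hg : g = 1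
  · rw [hg]; exact isC_one
  · exact comm (rgd (K := K) hF CoxeterMatrix.F₄.toCoxeterSystem p) (G1_eq_top hF _) (coord hF)
      (Cfsg.Agent.Nodes.ChevChart.irr_of Cfsg.Agent.Nodes.ChevChart.irrF) (key hK) (not_core (p := p) hg)

end

end Cfsg.Agent.H903.Ore.F4Three
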